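import Cfsg.Agent.Base

/-! The Krull-Remak-Schmidt theorem for finite groups. -/

set_option autoImplicit false

namespace H11.KRS

theorem exists_idem {M : Type*} [Monoid M] [Finite M] (x : M) :
    ∃ k, 0 < k ∧ x ^ k * x ^ k = x ^ k := by
  obtain ⟨a, b, hab, e⟩ : ∃ a b : ℕ, a < b ∧ x ^ a = x ^ b := by
    obtain ⟨a, b, h, e⟩ := Finite.exists_ne_map_eq_of_infinite fun n : ℕ => x ^ n
    rcases lt_or_gt_of_ne h with h | h
    exacts [⟨a, b, h, e⟩, ⟨b, a, h, e.symm⟩]
  obtain ⟨d, rfl⟩ := Nat.exists_eq_add_of_lt hab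
  have key : ∀ j c, x ^ (a + c + j * (d + 1)) = x ^ (a + c) := by
    intro j c
    induction j with
    | zero => simp
    | succ j ih =>
      rw [show a + c + (j + 1) * (d + 1) = a + d + 1 + (c + j * (d + 1)) by ring, pow_add, ← e,
        ← pow_add, ← add_assoc, ih]
  refine ⟨(a + 1) * (d + 1), by positivity, ?_⟩
  have := key (a + 1) (a * d + d + 1)
  rw [show a + (a * d + d + 1) = (a + 1) * (d + 1) by ring] at this
  rw [← pow_add, this]

/-- directly indecomposable -/
def Ind (A : Type*) [Group A] : Prop :=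
  Nontrivial A ∧ ∀ H K : Subgroup A, H.Normal → K.Normal → H ⊓ K = ⊥ → H ⊔ K = ⊤ → H = ⊥ ∨ K = ⊥

/-- normal endomorphism -/
def NE {A : Type*} [Group A] (φ : A →* A) : Prop := ∀ g a, φ (g * a * g⁻¹) = g * φ a * g⁻¹

variable {A : Type*} [Group A]

theorem idem_cases (h : Ind A) {ε : A →* A} (hn : NE ε) (e : ∀ a, ε (ε a) = ε a) :
    Function.Injective ε ∨ ∀ a, ε a = 1 := by
  have h1 : ε.range.Normal := ⟨by
    rintro _ ⟨a, rfl⟩ g
    exact ⟨_, hn g a⟩⟩
  rcases h.2 ε.ker ε.range inferInstance h1 (by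
    rw [eq_bot_iff]
    rintro _ ⟨hx, a, rfl⟩
    exact (e a).symm.trans hx) (by
    rw [eq_top_iff]
    intro a _
    rw [← inv_mul_cancel_right a (ε a)]
    exact Subgroup.mul_mem_sup (by rw [MonoidHom.mem_ker, map_mul, map_inv, e, mul_inv_cancel])
      ⟨a, rfl⟩) with b | b
  · exact .inl ((MonoidHom.ker_eq_bot_iff ε).1 b)
  · exact .inr fun a => Subgroup.mem_bot.1 (b ▸ (⟨a, rfl⟩ : ε a ∈ ε.range))

/-- Fitting's lemma -/
theorem fitting [Finite A] (h : Ind A) {φ : A →* A} (hn : NE φ) :
    Function.Injective φ ∨ ∀ a, φ a = a → a = 1 := by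
  have : Finite (Monoid.End A) := Finite.of_injective (fun f : Monoid.End A => (f : A → A))
    DFunLike.coe_injective
  obtain ⟨k, hk, e⟩ := exists_idem (M := Monoid.End A) φ
  obtain ⟨ε, c, e'⟩ : ∃ ε : A →* A, (∀ a, ε a = φ^[k] a) ∧ ∀ a, ε (ε a) = ε a :=
    ⟨(show Monoid.End A from φ) ^ k, fun a => congrFun (Monoid.End.coe_pow A φ k) a,
      fun a => DFunLike.congr_fun e a⟩
  rcases idem_cases h (ε := ε) (fun g a => by
    rw [c, c]
    clear c e e' hk
    induction k with
    | zero => rfl
    | succ l ih => rw [Function.iterate_succ_apply', Function.iterate_succ_apply', ih, hn]) e'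
    with b | b
  · left
    obtain ⟨l, rfl⟩ := Nat.exists_eq_add_of_lt hk
    intro x y e
    apply b
    rw [c, c, Function.iterate_succ_apply, Function.iterate_succ_apply, e]
  · right
    intro a e
    rw [← b a, c, Function.iterate_fixed e]

theorem inj_or [Finite A] (h : Ind A) {α β θ : A →* A} (hα : NE α) (hθ : NE θ)
    (hi : Function.Injective θ) (e : ∀ a, θ a = α a * β a) :
    Function.Injective α ∨ Function.Injective β := by
  let t := MulEquiv.ofBijective θ (Finite.injective_iff_bijective.1 hi)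
  rcases fitting h (φ := t.symm.toMonoidHom.comp α) (fun g a => by
    apply hi
    show t (t.symm _) = θ (g * t.symm (α a) * g⁻¹)
    rw [hθ, t.apply_symm_apply, hα]
    exact congrArg (fun x => g * x * g⁻¹) (t.apply_symm_apply _).symm) with b | b
  · exact .inl (Function.Injective.of_comp (f := t.symm) b)
  · refine .inr ((injective_iff_map_eq_one β).2 fun a ha => b a ?_)
    exact t.symm_apply_eq.2 (by show α a = θ a; rw [e, ha, mul_one])

/-- restriction to a set of coordinates -/
def rs {ι : Type*} [DecidableEq ι] (B : ι → Type*) [∀ j, Group (B j)] (s : Finset ι) :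
    (∀ j, B j) →* (∀ j, B j) where
  toFun b j := if j ∈ s then b j else 1
  map_one' := by ext j; simp
  map_mul' a b := by ext j; simp only [Pi.mul_apply]; split_ifs <;> simp

theorem exists_factor {ι : Type*} [Fintype ι] [DecidableEq ι] {B : ι → Type*}
    [∀ j, Group (B j)] [Finite A] (h : Ind A) (hB : ∀ j, Ind (B j)) (u : A →* ∀ j, B j)
    (v : (∀ j, B j) →* A) (h1 : ∀ a, v (u a) = a)
    (h2 : ∀ g a, u (v (g * a * g⁻¹)) = g * u (v a) * g⁻¹) :
    ∃ j, Function.Bijective (v.comp (MonoidHom.mulSingle B j)) := by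
  have hn : ∀ s, NE (v.comp ((rs B s).comp u)) := fun s g a => by
    have : rs B s (u (g * a * g⁻¹)) = u g * rs B s (u a) * (u g)⁻¹ := by
      ext j
      simp only [rs, map_mul, map_inv, MonoidHom.coe_mk, OneHom.coe_mk, Pi.mul_apply, Pi.inv_apply]
      split_ifs <;> simp
    simp only [MonoidHom.comp_apply]
    rw [this, map_mul, map_mul, map_inv, h1]
  have key : ∀ s : Finset ι, Function.Injective (v.comp ((rs B s).comp u)) →
      ∃ j, Function.Injective (v.comp ((rs B {j}).comp u)) := by
    intro s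
    induction s using Finset.induction_on with
    | empty =>
      intro b
      obtain ⟨a, ha⟩ := @exists_ne _ h.1 (1 : A)
      refine absurd (b ?_) ha
      have : ∀ x, rs B ∅ x = 1 := fun x => by ext j; simp [rs]
      simp only [MonoidHom.comp_apply, this]
    | insert j s hj ih =>
      intro b
      refine (inj_or h (hn {j}) (hn _) b fun a => ?_).elim (fun c => ⟨j, c⟩) ih
      simp only [MonoidHom.comp_apply, ← map_mul]
      congr 1
      ext k
      simp only [rs, MonoidHom.coe_mk, OneHom.coe_mk, Pi.mul_apply, Finset.mem_insert,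
        Finset.mem_singleton]
      by_cases c : k = j
      · simp [c, hj]
      · simp [c]
  obtain ⟨j, hj⟩ := key Finset.univ fun x y e => by
    have : ∀ x, rs B Finset.univ x = x := fun x => by ext j; simp [rs]
    simpa only [MonoidHom.comp_apply, this, h1] using e
  have e1 : ∀ x, rs B {j} x = MonoidHom.mulSingle B j (x j) := fun x => by
    ext k
    simp only [rs, MonoidHom.coe_mk, OneHom.coe_mk, Finset.mem_singleton,
      MonoidHom.mulSingle_apply]
    by_cases c : k = j
    · subst c; simp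
    · simp [c]
  set p := v.comp (MonoidHom.mulSingle B j) with hp
  let q : A →* B j := (Pi.evalMonoidHom B j).comp u
  have e2 : ∀ a, p (q a) = v.comp ((rs B {j}).comp u) a := fun a => by
    simp only [hp, MonoidHom.comp_apply, e1]; rfl
  have hpq : Function.Bijective (p.comp q) :=
    Finite.injective_iff_bijective.1 fun x y e => hj (by rw [← e2, ← e2]; exact e)
  have hs : Function.Surjective p := Function.Surjective.of_comp (g := q) hpq.2
  refine ⟨j, ?_, hs⟩
  have hq : q.range.Normal := ⟨by
    rintro _ ⟨a, rfl⟩ g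
    refine ⟨v (Pi.mulSingle j g * u a * (Pi.mulSingle j g)⁻¹), ?_⟩
    show u (v _) j = _
    rw [h2, h1]
    simp [q]⟩
  rcases (hB j).2 p.ker q.range inferInstance hq (by
    rw [eq_bot_iff]
    rintro _ ⟨hx, a, rfl⟩
    rw [hpq.1 (a₁ := a) (a₂ := 1) (by rw [map_one]; exact hx), map_one]
    exact Subgroup.one_mem _) (by
    rw [eq_top_iff]
    intro b _
    obtain ⟨a, ha⟩ := hpq.2 (p b)
    rw [← inv_mul_cancel_right b (q a)]
    exact Subgroup.mul_mem_sup (by
      rw [MonoidHom.mem_ker, map_mul, map_inv, ← ha]; exact mul_inv_cancel _) ⟨a, rfl⟩) with b | b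
  · exact (MonoidHom.ker_eq_bot_iff p).1 b
  · obtain ⟨a, ha⟩ := @exists_ne _ h.1 (1 : A)
    refine absurd (hpq.1 ?_) ha
    have : q a = 1 := Subgroup.mem_bot.1 (b ▸ (⟨a, rfl⟩ : q a ∈ q.range))
    rw [map_one, MonoidHom.comp_apply, this, map_one]

/-- put `1` in front -/
def cons1 {m : ℕ} (A : Fin (m + 1) → Type*) [∀ i, Group (A i)] :
    (∀ i : Fin m, A i.succ) →* ∀ i, A i where
  toFun x := Fin.cons 1 x
  map_one' := by ext i; cases i using Fin.cases <;> simp
  map_mul' x y := by ext i; cases i using Fin.cases <;> simp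

theorem krs : ∀ (m n : ℕ) (A : Fin m → Type*) (B : Fin n → Type*) [∀ i, Group (A i)]
    [∀ j, Group (B j)] [∀ i, Finite (A i)] [∀ j, Finite (B j)], (∀ i, Ind (A i)) →
    (∀ j, Ind (B j)) → ((∀ i, A i) ≃* (∀ j, B j)) →
    ∃ σ : Fin m ≃ Fin n, ∀ i, Nonempty (A i ≃* B (σ i)) := by
  intro m
  induction m with
  | zero =>
    intro n A B _ _ _ _ _ hB e
    cases n with
    | zero => exact ⟨Equiv.refl _, fun i => i.elim0⟩
    | succ n =>
      obtain ⟨b, hb⟩ := @exists_ne _ (hB 0).1 (1 : B 0)
      have : Subsingleton (∀ j, B j) := e.symm.subsingleton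
      exact absurd (by simpa using congrFun (Subsingleton.elim (Pi.mulSingle 0 b : ∀ j, B j) 1) 0) hb
  | succ m ih =>
    intro n A B _ _ _ _ hA hB e
    obtain ⟨j, hj⟩ := exists_factor (hA 0) hB
      (e.toMonoidHom.comp (MonoidHom.mulSingle A 0))
      ((Pi.evalMonoidHom A 0).comp e.symm.toMonoidHom) (fun a => by simp) (fun g a => by
        apply e.symm.injective
        ext i
        by_cases c : i = 0
        · subst c; simp
        · simp [c])
    cases n with
    | zero => exact j.elim0
    | succ n =>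
    let f : (∀ i : Fin m, A i.succ) →* ∀ k : Fin n, B (j.succAbove k) :=
      (MonoidHom.pi fun k => Pi.evalMonoidHom B (j.succAbove k)).comp
        (e.toMonoidHom.comp (cons1 A))
    have hf : Function.Injective f := (injective_iff_map_eq_one f).2 fun x hx => by
      have e1 : e (cons1 A x) = Pi.mulSingle j (e (cons1 A x) j) := by
        ext k
        rcases Fin.eq_self_or_eq_succAbove j k with rfl | ⟨l, rfl⟩
        · simp
        · rw [Pi.mulSingle_eq_of_ne (Fin.succAbove_ne j l)]
          exact congrFun hx l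
      have e2 : e (cons1 A x) j = 1 := hj.1 (by
        rw [map_one]
        show e.symm (Pi.mulSingle j (e (cons1 A x) j)) 0 = 1
        rw [← e1, e.symm_apply_apply]; rfl)
      rw [e2, Pi.mulSingle_one, map_eq_one_iff e e.injective] at e1
      ext i
      exact congrFun e1 i.succ
    have c1 := Nat.card_congr e.toEquiv
    rw [Nat.card_pi, Nat.card_pi, Fin.prod_univ_succ, Fin.prod_univ_succAbove _ j,
      ← Nat.card_congr (Equiv.ofBijective _ hj), ← Nat.card_pi, ← Nat.card_pi] at c1
    obtain ⟨σ, hσ⟩ := ih n (fun i => A i.succ) (fun k => B (j.succAbove k)) (fun i => hA _)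
      (fun k => hB _) (MulEquiv.ofBijective f ((Nat.bijective_iff_injective_and_card f).2
        ⟨hf, Nat.eq_of_mul_eq_mul_left Nat.card_pos c1⟩))
    refine ⟨(finSuccEquiv m).trans (σ.optionCongr.trans (finSuccEquiv' j).symm), fun i => ?_⟩
    cases i using Fin.cases with
    | zero =>
      rw [show ((finSuccEquiv m).trans (σ.optionCongr.trans (finSuccEquiv' j).symm)) 0 = j by simp]
      exact ⟨(MulEquiv.ofBijective _ hj).symm⟩
    | succ i =>
      rw [show ((finSuccEquiv m).trans (σ.optionCongr.trans (finSuccEquiv' j).symm)) i.succ =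
        j.succAbove (σ i) by simp]
      exact hσ i

end H11.KRS
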